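import Cfsg.Agent.F4.Top
import Cfsg.Agent.Fi.Ge24
import Cfsg.Agent.Fi.Q24a

/-! Involutions. -/

set_option autoImplicit false

namespace Cfsg.Agent.F4

open Cfsg.Agent.M24 (band bor lall nall band_eq lall_iff nall_iff)
open Cfsg.Agent.FM Cfsg.Agent.FM.F24 Cfsg.Agent.GT Subgroup

variable {G : Type*} [Group G] {D : Set G}

/-- two conjugates of `t` whose product has order more than three -/
noncomputable def badC (c : CD) (t g : Ex) : Bool :=
  band (bn (c.eqE (.pow (.mul t (g.cj t)) 2) .one)) (bn (c.eqE (.pow (.mul t (g.cj t)) 3) .one))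

theorem badC_spec {c : CD} (M : Mdl G D c) {t g : Ex} (h : badC c t g = true) {d : G} (e : IsConj d (M.ev t)) :
    ¬ IsThreeTranspositionSet (conjugatesOf d) := fun hs => by
  simp only [badC, band_eq, Bool.and_eq_true, bn_eq, Bool.not_eq_true'] at h
  rcases hs.2 _ e (M.ev (g.cj t)) (e.trans (isConj_iff.2 ⟨_, (M.ev_cj _ _).symm⟩)) with h1 | h1
  · exact M.ne_of_eqE h.1 h1
  · exact M.ne_of_eqE h.2 h1

theorem bad2 : badC cd (.ps [693, 0]) (.w [0, 16]) = true := by decide +kernel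
theorem bad3 : badC cd (.ps [3510, 693, 0]) (.w [0, 16]) = true := by decide +kernel
theorem bad4 : badC cd (.ps [31671, 3510, 693, 0]) (.w [0, 14]) = true := by decide +kernel

variable [Finite G] {M : Mdl G D cd}

theorem all2 (h : Fi.M24 D M.pt) {y : G} (hy : orderOf y = 2) : ∃ k, 1 ≤ k ∧ k ≤ 4 ∧ Fi.Prd D k y := by
  obtain ⟨g, hg⟩ := Fi.Q24a.exists_pc M
  exact hg.all2 (r := 3 ^ 16 * 5 ^ 2 * 7 ^ 3 * 11 * 13 * 17 * 23 * 29) (by rw [h.card]; norm_num) (by decide)
    Fi.Q24a.hjs Fi.Q24a.htop hy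

theorem uniq_class (h : Fi.M24 D M.pt) {D' : Set G} (hD' : IsThreeTranspositionClass D') : D' = D := by
  obtain ⟨hs, ⟨d, hd, e⟩, -⟩ := hD'
  obtain ⟨k, k1, k2, k3⟩ := all2 h (hs.1 d hd)
  rw [e] at hs
  interval_cases k
  · obtain ⟨l, -, h1, h2, -, rfl⟩ := k3
    obtain ⟨a, rfl⟩ := List.length_eq_one_iff.1 h1
    obtain ⟨b, -, hb⟩ := (h.class h.t3.ts h.top).2.1
    have h3 := h2 a List.mem_cons_self
    rw [e, hb] at *
    exact (isConj_iff_conjugatesOf_eq.1 (by rw [List.prod_singleton]; exact h3)).symm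
  · exact absurd hs (badC_spec M bad2 ((Fi.g8_tr24_2 M).isConj (by decide) k3))
  · exact absurd hs (badC_spec M bad3 ((Fi.g8_tr24_3 M).isConj (by decide) k3))
  · exact absurd hs (badC_spec M bad4 ((Fi.g8_tr24_4 M).isConj (by decide) k3))

end Cfsg.Agent.F4
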